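import Cfsg.Agent.OrderSpecPSL.Count
import Cfsg.Agent.CharDeep.ZassAbelian

/-!
A group with the order and the element orders of `PSL(2, q)`, `q ≥ 4`, is `PSL(2, q)`.
-/

set_option autoImplicit false

namespace Cfsg.Agent.OrderSpecPSL

open Subgroup MulAction Cfsg.Agent.PermB
open scoped OnePoint MatrixGroups

/-- Every element interchanging `a` and `b` has the form `s * h`. -/
theorem inverted_of_swappers' {G α : Type*} [Group G] [MulAction G α] {a b : α} {s : G}
    (hsa : s • a = b) (hsb : s • b = a)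
    (hS : ∀ t : G, t • a = b → t • b = a → t * t = 1) :
    ∀ h ∈ ZData.H2 (G := G) a b, s * h * s⁻¹ = h⁻¹ := by
  intro h hh
  obtain ⟨h1, h2⟩ := ZData.mem_H2.mp hh
  have hs := hS s hsa hsb
  have hs' := hS (s * h) (by rw [mul_smul, h1, hsa]) (by rw [mul_smul, h2, hsb])
  rw [inv_eq_of_mul_eq_one_right hs]
  exact eq_inv_iff_mul_eq_one.mpr (by rw [show s * h * s * h = s * h * (s * h) by group, hs'])

/-- Recognition of `PSL(2, q)` for even `q` from the action on `q + 1` Sylow subgroups. -/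
theorem nonempty_equiv_psl_even {G : Type*} [Group G] [Finite G] {p : ℕ} [Fact p.Prime]
    {P Q : Sylow p G} (hPQ : Q ≠ P) (hz : ZData G (Sylow p G))
    (hN : IsKernel (P : Subgroup G) P) {q : ℕ} (hq : Even q) (hq4 : 4 ≤ q)
    (hn : Nat.card (Sylow p G) = q + 1) (hH : Nat.card (ZData.H2 (G := G) P Q) = q - 1)
    {F : Type*} [Field F] [Fintype F] (hF : Fintype.card F = q) :
    Nonempty (G ≃* Matrix.ProjectiveSpecialLinearGroup (Fin 2) F) := by
  classical
  have := Fintype.ofFinite (Sylow p G)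
  obtain ⟨hNc, r, f, hr, hexp, hrf⟩ :=
    hN.elementary hz hPQ (by rw [hn]; omega) (by rw [hn, hH]; omega)
  have hr2 : r = 2 := by
    rw [hn, Nat.add_right_cancel_iff] at hrf
    exact ((Nat.prime_dvd_prime_iff_eq Nat.prime_two hr).mp
      (Nat.prime_two.dvd_of_dvd_pow (hrf ▸ even_iff_two_dvd.mp hq))).symm
  subst hr2
  have hsw : ∀ c : Sylow p G, c ≠ P → c ≠ Q →
      ∃ t : G, t • P = Q ∧ t • Q = P ∧ t • c = c ∧ t * t = 1 := by
    intro c hcP hcQ
    obtain ⟨g, hg⟩ := MulAction.exists_smul_eq G P c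
    have h1 : g⁻¹ • P ≠ P := fun h => hcP (by rw [← hg]; exact (inv_smul_eq_iff.mp h).symm)
    have h2 : g⁻¹ • Q ≠ P := fun h => hcQ (by rw [← hg]; exact (inv_smul_eq_iff.mp h).symm)
    obtain ⟨u, hu, hu'⟩ := hN.exists_smul h1 h2
    have hu2 : u * u = 1 := by rw [← pow_two]; exact hexp u hu
    have htP : (g * u * g⁻¹) • P = Q := by rw [mul_smul, mul_smul, hu', smul_inv_smul]
    have htt : (g * u * g⁻¹) * (g * u * g⁻¹) = 1 := by
      rw [show (g * u * g⁻¹) * (g * u * g⁻¹) = g * (u * u) * g⁻¹ by group, hu2]; group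
    refine ⟨g * u * g⁻¹, htP, ?_, ?_, htt⟩
    · rw [← htP, ← mul_smul, htt, one_smul]
    · have huP : u • P = P := hN.le hu
      rw [mul_smul, mul_smul, ← hg, inv_smul_smul, huP]
  choose τ hτP hτQ hτc hτ2 using hsw
  let C := {c : Sylow p G // c ≠ P ∧ c ≠ Q}
  have hC : Nat.card C = q - 1 := by
    rw [Nat.card_eq_fintype_card, Fintype.card_subtype]
    have : (Finset.univ.filter fun c : Sylow p G => c ≠ P ∧ c ≠ Q) = Finset.univ \ {P, Q} := by
      ext x; simp
    rw [this, Finset.card_univ_diff, Finset.card_pair hPQ.symm, ← Nat.card_eq_fintype_card, hn]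
    omega
  let T : Set G := {t : G | t • P = Q ∧ t • Q = P}
  let fC : C → T := fun c => ⟨τ c.1 c.2.1 c.2.2, hτP _ c.2.1 c.2.2, hτQ _ c.2.1 c.2.2⟩
  have hinj : Function.Injective fC := by
    intro c c' hcc
    by_contra hne
    have hval : τ c.1 c.2.1 c.2.2 = τ c'.1 c'.2.1 c'.2.2 := congrArg Subtype.val hcc
    set t := τ c.1 c.2.1 c.2.2 with ht
    have ht1 : t ≠ 1 := fun h => hPQ (by
      have := hτP c.1 c.2.1 c.2.2; rw [← ht, h, one_smul] at this; exact this.symm)
    obtain ⟨hle, hpar⟩ := hz.card_fixedBy_involution (hτ2 _ c.2.1 c.2.2) ht1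
    rw [hn] at hpar
    have h2 : 2 ≤ Nat.card (fixedBy (Sylow p G) t) := by
      have : Nontrivial (fixedBy (Sylow p G) t) :=
        ⟨⟨⟨c.1, hτc _ c.2.1 c.2.2⟩,
          ⟨c'.1, by rw [mem_fixedBy, hval]; exact hτc _ c'.2.1 c'.2.2⟩,
          fun e => hne (Subtype.ext (congrArg (fun z => z.1) e))⟩⟩
      exact Finite.one_lt_card_iff_nontrivial.mpr this
    obtain ⟨k, hk⟩ := hq
    have heq := le_antisymm hle h2
    rw [heq, hk] at hpar
    omega
  have hT : T.ncard ≤ q - 1 := hH ▸ ZData.ncard_swappers_le (fun t (ht : t ∈ T) => ht)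
  have hbij : Function.Bijective fC := (Nat.bijective_iff_injective_and_card _).mpr ⟨hinj,
    le_antisymm (Nat.card_le_card_of_injective fC hinj)
      (by rw [hC, Nat.card_coe_set_eq]; exact hT)⟩
  obtain ⟨c, hcP, hcQ⟩ := exists_ne_ne (α := Sylow p G) (by rw [hn]; omega) P Q
  obtain ⟨K, iK, iF, hK, ⟨e⟩⟩ := exists_mulEquiv_pgl hz hN hPQ.symm hcP hcQ hNc (hτP c hcP hcQ)
    (hτQ c hcP hcQ) (hτc c hcP hcQ)
    (inverted_of_swappers' (hτP c hcP hcQ) (hτQ c hcP hcQ) fun t h1 h2 => by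
      obtain ⟨d, hd⟩ := hbij.2 ⟨t, h1, h2⟩
      have hd' : τ d.1 d.2.1 d.2.2 = t := congrArg Subtype.val hd
      rw [← hd']
      exact hτ2 _ d.2.1 d.2.2) (by rw [hH, hn]; omega)
  have hKF : Fintype.card K = q := by omega
  have hKe : Even (Fintype.card K) := hKF.symm ▸ hq
  have hcardeq : Nat.card (Matrix.ProjectiveSpecialLinearGroup (Fin 2) K) =
      Nat.card (Matrix.ProjGenLinGroup (Fin 2) K) := by
    rw [Linear.card_PGL_eq_card_SL]
    have h1 := Subgroup.card_eq_card_quotient_mul_card_subgroup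
      (Subgroup.center (Matrix.SpecialLinearGroup (Fin 2) K))
    rw [Linear.card_center_SL, Fintype.card_fin, Linear.gcd_two_of_even hKe, mul_one] at h1
    exact h1.symm
  have : Finite (Matrix.ProjGenLinGroup (Fin 2) K) := Finite.of_surjective
    (Matrix.ProjGenLinGroup.mk (n := Fin 2) (R := K))
    (fun x => Matrix.ProjGenLinGroup.induction_on x (fun g => ⟨g, rfl⟩))
  let e1 : Matrix.ProjectiveSpecialLinearGroup (Fin 2) K ≃* Matrix.ProjGenLinGroup (Fin 2) K :=
    MulEquiv.ofBijective Matrix.ProjectiveSpecialLinearGroup.toPGL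
      ((Nat.bijective_iff_injective_and_card _).mpr
        ⟨Matrix.ProjectiveSpecialLinearGroup.toPGL_injective, hcardeq⟩)
  obtain ⟨e'⟩ := Linear.psl_congr (FiniteField.ringEquivOfCardEq (hKF.trans hF.symm)) (Fin 2)
  exact ⟨(e.trans e1.symm).trans e'⟩

namespace Hyp

variable {G : Type*} [Group G] [Finite G] {p k a b d : ℕ}

theorem isZassenhaus (h : Hyp G p k a b d) [Fact p.Prime] (hp2 : p ≠ 2) {P Q : Sylow p G}
    (hPQ : Q ≠ P) (hz : ZData G (Sylow p G))
    (hH : Nat.card (ZData.H2 (G := G) P Q) = a) :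
    Cfsg.IsZassenhausGroup G (Sylow p G) := by
  classical
  obtain ⟨rfl, -⟩ : d = 2 ∧ p ≠ 2 := h.hd.resolve_left fun e => hp2 e.2
  have hfour := h.four
  have ha := h.ha
  have hb := h.hb
  refine ⟨⟨fun {g g'} e => (inv_mul_eq_one.mp (hz.faithful (g'⁻¹ * g) fun x => by
      rw [mul_smul, e, inv_smul_smul])).symm⟩, hz.isMultiplyPretransitive,
    fun g A B C => hz.three g, ?_, fun N hN htr => ?_⟩
  · haveI : Nontrivial (ZData.H2 (G := G) P Q) :=
      Finite.one_lt_card_iff_nontrivial.mp (by omega)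
    obtain ⟨g, hg⟩ := exists_ne (1 : ZData.H2 (G := G) P Q)
    exact ⟨g, fun e => hg (Subtype.ext e), P, Q, hPQ.symm, g.2.1, g.2.2⟩
  by_contra hreg
  push Not at hreg
  -- a regular normal subgroup
  have hNc : Nat.card N = 2 * b := by
    rw [h.hb, ← h.card_sylow]
    refine Nat.card_eq_of_bijective (fun n : N => n • P) ⟨fun n m e => ?_, fun R => ?_⟩
    · have : m⁻¹ * n ∈ stabilizer N P := by
        rw [mem_stabilizer_iff, mul_smul]; exact inv_smul_eq_iff.mpr e
      rw [hreg P, mem_bot, inv_mul_eq_one] at this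
      exact this.symm
    · exact htr.exists_smul_eq P R
  let α := {n : N // n ≠ 1}
  letI : MulAction (P : Subgroup G) α :=
    { smul := fun u n => ⟨⟨(u : G) * n.1 * (u : G)⁻¹, hN.conj_mem _ n.1.2 _⟩, fun e => n.2
        (Subtype.ext (conj_eq_one_iff.mp (congrArg Subtype.val e)))⟩
      one_smul := fun n => Subtype.ext (Subtype.ext (by
        show (1 : G) * n.1 * (1 : G)⁻¹ = n.1; group))
      mul_smul := fun u v n => Subtype.ext (Subtype.ext (by
        show (u : G) * (v : G) * n.1 * ((u : G) * (v : G))⁻¹ =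
          (u : G) * ((v : G) * n.1 * (v : G)⁻¹) * (u : G)⁻¹
        group)) }
  have hfree : ∀ n : α, stabilizer (P : Subgroup G) n = ⊥ := fun n =>
    (Subgroup.eq_bot_iff_forall _).mpr fun u hu => by_contra fun hu1 => n.2 (by
      have e : (u : G) * n.1 * (u : G)⁻¹ = n.1 :=
        congrArg (fun m : α => ((m.1 : N) : G)) hu
      have h1 := h.pow_eq_one_of_commute (fun e' => hu1 (Subtype.ext e'))
        (h.pow_eq_one_of_pgroup P.2 u.2) (mul_inv_eq_iff_eq_mul.mp e)
      have h2 := N.orderOf_dvd_natCard n.1.2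
      rw [hNc] at h2
      exact Subtype.ext (orderOf_eq_one_iff.mp (Nat.Coprime.eq_one_of_dvd
        ((h.prime.coprime_iff_not_dvd.mpr h.not_dvd_db).coprime_dvd_left
          (orderOf_dvd_of_pow_eq_one h1)) h2)))
  have hα : Nat.card α = p ^ k := by
    haveI : Fintype N := Fintype.ofFinite N
    simp only [α, Nat.card_eq_fintype_card, Fintype.card_subtype_compl, Fintype.card_subtype_eq]
    rw [← Nat.card_eq_fintype_card, hNc]; omega
  -- `N` has exponent two
  haveI : Fact (Nat.Prime 2) := ⟨Nat.prime_two⟩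
  obtain ⟨t, ht⟩ := exists_prime_orderOf_dvd_card' 2 (hNc ▸ dvd_mul_right 2 b : 2 ∣ Nat.card N)
  have ht1 : t ≠ 1 := fun e => by rw [e, orderOf_one] at ht; omega
  have hbij : Function.Bijective (fun u : (P : Subgroup G) => u • (⟨t, ht1⟩ : α)) := by
    refine (Nat.bijective_iff_injective_and_card _).mpr
      ⟨fun u v e => ?_, by rw [hα, h.card_sylow_subgroup]⟩
    have : v⁻¹ * u ∈ stabilizer (P : Subgroup G) (⟨t, ht1⟩ : α) := by
      rw [mem_stabilizer_iff, mul_smul]; exact inv_smul_eq_iff.mpr e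
    rw [hfree, mem_bot, inv_mul_eq_one] at this
    exact this.symm
  have htt : (t : G) * t = 1 := by
    have := pow_orderOf_eq_one t
    rw [ht, pow_two] at this
    exact congrArg Subtype.val this
  have hexp : ∀ n ∈ N, n ^ 2 = (1 : G) := by
    intro n hn
    by_cases hn1 : (⟨n, hn⟩ : N) = 1
    · rw [show n = 1 from congrArg Subtype.val hn1, one_pow]
    · obtain ⟨u, hu⟩ := hbij.2 ⟨⟨n, hn⟩, hn1⟩
      have e : (u : G) * t * (u : G)⁻¹ = n := congrArg (fun m : α => ((m.1 : N) : G)) hu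
      rw [← e, conj_pow, pow_two, htt]; group
  obtain ⟨s, hs⟩ := IsPGroup.iff_card.mp (show IsPGroup 2 N from fun n => ⟨1, Subtype.ext (by
    simpa using hexp n n.2)⟩)
  -- an element of order `b`
  obtain ⟨g, hg⟩ := h.exists_order (n := b) (Or.inr dvd_rfl)
  obtain ⟨s', rfl⟩ : ∃ s', s = s' + 1 := by
    rcases s with _ | s'
    · rw [hNc, pow_zero] at hs; omega
    · exact ⟨s', rfl⟩
  have hbs : b = 2 ^ s' := by
    rw [hNc, pow_succ] at hs; omega
  have hgp : IsPGroup 2 (zpowers g) := IsPGroup.of_card (n := s') (by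
    rw [Nat.card_zpowers, hg, hbs])
  have hT := hgp.to_sup_of_normal_right' (show IsPGroup 2 N from fun n => ⟨1, Subtype.ext (by
    simpa using hexp n n.2)⟩) (by rw [Subgroup.normalizer_eq_top]; exact le_top)
  obtain ⟨w, hw⟩ := IsPGroup.iff_card.mp hT
  have haodd : ¬ 2 ∣ a := by
    have : 2 ∣ b := hbs ▸ dvd_pow_self 2 (fun e => by rw [e, pow_zero] at hbs; omega)
    omega
  have hqodd : ¬ 2 ∣ p ^ k := fun e => hp2
    ((Nat.prime_dvd_prime_iff_eq Nat.prime_two h.prime).mp (Nat.prime_two.dvd_of_dvd_pow e)).symm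
  have hdvd := Subgroup.card_subgroup_dvd_card (zpowers g ⊔ N)
  rw [hw, h.card, show p ^ k * (2 * (a * b)) = p ^ k * a * (2 * b) by ring] at hdvd
  have hdvd' := ((Nat.prime_two.coprime_iff_not_dvd.mpr fun e => (Nat.prime_two.dvd_mul.mp e).elim
    hqodd haodd).pow_left w).dvd_of_dvd_mul_left hdvd
  have heq : N = zpowers g ⊔ N := Subgroup.eq_of_le_of_card_ge le_sup_right
    (by rw [hw, hNc]; exact Nat.le_of_dvd (by omega) hdvd')
  have hgN : g ∈ N := heq ▸ mem_sup_left (mem_zpowers g)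
  have := Nat.le_of_dvd two_pos (hg ▸ orderOf_dvd_of_pow_eq_one (hexp g hgN))
  omega

theorem nonempty_mulEquiv (h : Hyp G p k a b d) {F : Type*} [Field F] [Fintype F]
    (hF : Fintype.card F = p ^ k) :
    Nonempty (G ≃* Matrix.ProjectiveSpecialLinearGroup (Fin 2) F) := by
  classical
  haveI : Fact p.Prime := ⟨h.prime⟩
  obtain ⟨P⟩ := (inferInstance : Nonempty (Sylow p G))
  obtain ⟨Q, hQ, hz, hN, hH⟩ := h.zData P
  rcases h.hd with ⟨rfl, rfl⟩ | ⟨rfl, hp2⟩
  · exact nonempty_equiv_psl_even hQ hz hN ((Nat.even_pow).mpr ⟨even_two, h.k_pos.ne'⟩) h.four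
      h.card_sylow (by rw [hH]; have := h.ha; omega) hF
  · have ha := h.ha
    have hfour := h.four
    obtain ⟨hNc, -⟩ := hN.elementary hz hQ (by rw [h.card_sylow]; omega)
      (by rw [h.card_sylow, hH]; omega)
    rcases CharDeep.ZA.abelian_kernel (h.isZassenhaus hp2 hQ hz hH) hN hQ.symm hNc with
      ⟨h3, hst⟩ | ⟨K, iK, iF, -, hK, ⟨e⟩⟩
    · exfalso
      haveI : FaithfulSMul G (Sylow p G) := (h.isZassenhaus hp2 hQ hz hH).1
      have hc : 3 ≤ Nat.card (Sylow p G) := by rw [h.card_sylow]; omega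
      have := ZData.card_H2_of_sharp3 hz hc h3 hQ.symm
      rw [hH, h.card_sylow] at this
      omega
    · rw [h.card_sylow, Nat.add_right_cancel_iff] at hK
      obtain ⟨e'⟩ := Linear.psl_congr (FiniteField.ringEquivOfCardEq (hK.trans hF.symm)) (Fin 2)
      exact ⟨e.trans e'⟩

end Hyp

end Cfsg.Agent.OrderSpecPSL
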